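import Cfsg.Agent.H93.RC.Sieve
import Cfsg.Agent.H93.RC.Odd
import Cfsg.Agent.H16.Og.Seven

/-!
# S3510, triality type iii, mixed case: the one-parameter group of `u`, `(u - 1)³ = 0`, `p ≥ 5` (helper93)

`X = N - N²/2`, `N = u - 1`, is a derivation of `⋄`, skew, `X³ = 0`; `A t = 1 + t X + t²/2 X²`;
`A t (v ⋄ w) = A (φ t) v ⋄ A (φ² t) w`.
-/

set_option autoImplicit false
open Cfsg

namespace Cfsg.Agent.H93.RC.Mix

open Module QuadraticMap MulAction
open Cfsg.Agent.LieClassical.OrthCore Cfsg.Agent.LieClassical.OrthTrans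
open Cfsg.Agent.LieClassical.OrthSimple Cfsg.Agent.ClassicalGeometry.OrthSemi
open Cfsg.Agent.ClassicalGeometry.OrthAut1 Cfsg.Agent.H106.RC Cfsg.Agent.H93.RC Cfsg.Agent.H566.RC
open Cfsg.Agent.LieClassical.QuadForms Cfsg.Agent.ClassicalGeometry.TrialityOct
open Cfsg.Agent.ClassicalGeometry.Triality Cfsg.Agent.ClassicalGeometry.TrialitySpaces
open Cfsg.Agent.H198.TriBase Cfsg.Agent.H198.TriAut Cfsg.Agent.H206.Balance Cfsg.Agent.H198.TriDia
open Cfsg.Agent.H864.RC Cfsg.Agent.H195.RC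

/-! ### derivations -/

section der

variable {F : Type} [Field F] {φ : F ≃+* F} (h : ∀ a, φ (φ (φ a)) = a) (h2 : (2 : F) ≠ 0) (h3 : (3 : F) ≠ 0)
  {N : V8 F →ₗ[F] V8 F} (hN : ∀ v w, N (tw φ v w) = tw φ (N v) w + tw φ v (N w) + tw φ (N v) (N w))
  (hN3 : ∀ v, N (N (N v)) = 0)

include h h3 hN hN3

theorem a22 (v w : V8 F) : tw φ (N (N v)) (N (N w)) = 0 ∧
    tw φ (N (N v)) (N w) + tw φ (N v) (N (N w)) = 0 := by
  have key : ∀ v w, (3 : F) • (tw φ (N (N v)) (N w) + tw φ (N v) (N (N w)) + (2 : F) • tw φ (N (N v)) (N (N w))) = 0 := by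
    intro v w
    have e := hN3 (tw φ v w)
    simp only [hN, map_add, hN3, tw_zero_left h, tw_zero_right h, add_zero, zero_add] at e
    rw [← e]
    module
  have key2 : ∀ v w, tw φ (N (N v)) (N w) + tw φ (N v) (N (N w)) + (2 : F) • tw φ (N (N v)) (N (N w)) = 0 := by
    intro v w
    exact (smul_eq_zero.1 (key v w)).resolve_left h3
  have e1 := key2 (N v) w
  rw [hN3, tw_zero_left h, tw_zero_left h, smul_zero, zero_add, add_zero] at e1
  refine ⟨e1, ?_⟩
  have e2 := key2 v w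
  rwa [e1, smul_zero, add_zero] at e2

end der

section exp

variable {F : Type} [Field F] {φ : F ≃+* F}

/-- `N - N² / 2` -/
def lg (N : V8 F →ₗ[F] V8 F) : V8 F →ₗ[F] V8 F := N - (2 : F)⁻¹ • (N * N)

theorem lg_apply (N : V8 F →ₗ[F] V8 F) (v : V8 F) : lg N v = N v - (2 : F)⁻¹ • N (N v) := rfl

theorem lg_lg {N : V8 F →ₗ[F] V8 F} (hN3 : ∀ v, N (N (N v)) = 0) (v : V8 F) : lg N (lg N v) = N (N v) := by
  simp only [lg_apply, map_sub, map_smul, hN3, map_zero, smul_zero, sub_zero]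

theorem lg3 {N : V8 F →ₗ[F] V8 F} (hN3 : ∀ v, N (N (N v)) = 0) (v : V8 F) : lg N (lg N (lg N v)) = 0 := by
  rw [lg_lg hN3, lg_apply, map_sub, map_sub, map_smul, map_smul, hN3, map_zero, smul_zero, sub_zero]

theorem inv_two_fix (φ : F ≃+* F) : φ (2 : F)⁻¹ = (2 : F)⁻¹ := by
  rw [map_inv₀, map_ofNat]

section

variable (h : ∀ a, φ (φ (φ a)) = a) (h2 : (2 : F) ≠ 0) (h3 : (3 : F) ≠ 0)
  {N : V8 F →ₗ[F] V8 F} (hN : ∀ v w, N (tw φ v w) = tw φ (N v) w + tw φ v (N w) + tw φ (N v) (N w))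
  (hN3 : ∀ v, N (N (N v)) = 0)

include h h2 h3 hN hN3

theorem lg_der (v w : V8 F) : lg N (tw φ v w) = tw φ (lg N v) w + tw φ v (lg N w) := by
  obtain ⟨e1, e2⟩ := a22 h h3 hN hN3 v w
  have k1 : N (tw φ v w) = tw φ (N v) w + tw φ v (N w) + tw φ (N v) (N w) := hN v w
  have k2 : N (N (tw φ v w)) = tw φ (N (N v)) w + tw φ v (N (N w)) + (2 : F) • tw φ (N v) (N w) := by
    have e3 : N (N (tw φ v w)) = tw φ (N (N v)) w + tw φ v (N (N w)) + (2 : F) • tw φ (N v) (N w) +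
        (2 : F) • (tw φ (N (N v)) (N w) + tw φ (N v) (N (N w))) + tw φ (N (N v)) (N (N w)) := by
      simp only [hN, map_add]
      module
    rw [e3, e1, e2]
    module
  simp only [lg_apply, tw_sub_left h, tw_sub_right h, tw_smul_left h, tw_smul_right h, inv_two_fix]
  rw [k2, k1, smul_add, smul_smul, inv_mul_cancel₀ h2]
  module

omit h2 in
theorem lg_ids (v w : V8 F) : tw φ (lg N (lg N v)) (lg N w) + tw φ (lg N v) (lg N (lg N w)) = 0 ∧
    tw φ (lg N (lg N v)) (lg N (lg N w)) = 0 := by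
  obtain ⟨e1, e2⟩ := a22 h h3 hN hN3 v w
  rw [lg_lg hN3, lg_lg hN3]
  refine ⟨?_, e1⟩
  simp only [lg_apply, tw_sub_left h, tw_sub_right h, tw_smul_left h, tw_smul_right h, inv_two_fix, e1, smul_zero, sub_zero]
  exact e2

end

end exp

/-! ### the group `A t` -/

section grp

variable {F : Type} [Field F] (h2 : (2 : F) ≠ 0) {X : V8 F →ₗ[F] V8 F} (hX3 : ∀ v, X (X (X v)) = 0)

/-- `1 + t X + t² / 2 X²` as a linear map -/
def exl (X : V8 F →ₗ[F] V8 F) (t : F) : V8 F →ₗ[F] V8 F := 1 + t • X + ((2 : F)⁻¹ * t ^ 2) • (X * X)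

theorem exl_apply (X : V8 F →ₗ[F] V8 F) (t : F) (v : V8 F) :
    exl X t v = v + t • X v + ((2 : F)⁻¹ * t ^ 2) • X (X v) := rfl

include h2 hX3 in
theorem exl_add (t t' : F) (v : V8 F) : exl X t (exl X t' v) = exl X (t + t') v := by
  simp only [exl_apply, map_add, map_smul, hX3, map_zero, smul_zero, add_zero]
  have h4 : (2 : F)⁻¹ * 2 = 1 := inv_mul_cancel₀ h2
  have e : ((2 : F)⁻¹ * (t + t') ^ 2) = (2 : F)⁻¹ * t ^ 2 + (2 : F)⁻¹ * t' ^ 2 + t * t' := by
    linear_combination (t * t') * h4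
  rw [e]
  module

theorem exl_zero (v : V8 F) : exl X 0 v = v := by
  rw [exl_apply]; simp

/-- `A t` -/
noncomputable def exq (h2 : (2 : F) ≠ 0) (hX3 : ∀ v, X (X (X v)) = 0) (t : F) : V8 F ≃ₗ[F] V8 F :=
  LinearEquiv.ofLinearMap (exl X t) (exl X (-t))
    (LinearMap.ext fun v => by
      change exl X t (exl X (-t) v) = v
      rw [exl_add h2 hX3, add_neg_cancel, exl_zero])
    (LinearMap.ext fun v => by
      change exl X (-t) (exl X t v) = v
      rw [exl_add h2 hX3, neg_add_cancel, exl_zero])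

theorem exq_apply (t : F) (v : V8 F) :
    exq h2 hX3 t v = v + t • X v + ((2 : F)⁻¹ * t ^ 2) • X (X v) := rfl

theorem exq_add (t t' : F) : exq h2 hX3 (t + t') = exq h2 hX3 t * exq h2 hX3 t' :=
  LinearEquiv.ext fun v => (exl_add h2 hX3 t t' v).symm

theorem exq_zero : exq h2 hX3 0 = 1 := LinearEquiv.ext fun v => exl_zero v

theorem exq_nsmul (t : F) (n : ℕ) : exq h2 hX3 (n • t) = exq h2 hX3 t ^ n := by
  induction n with
  | zero => rw [zero_smul, exq_zero, pow_zero]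
  | succ n ih => rw [succ_nsmul, exq_add, ih, pow_succ]

theorem exq_mem_O (hsk : ∀ v w, polar (plusForm 4 F) (X v) w = - polar (plusForm 4 F) v (X w)) (t : F) :
    exq h2 hX3 t ∈ O (plusForm 4 F) := by
  have hself : ∀ x : V8 F, polar (plusForm 4 F) x x = 2 * plusForm 4 F x := fun x => by
    rw [QuadraticMap.polar_self, nsmul_eq_mul, Nat.cast_ofNat]
  have h0 : ∀ v, polar (plusForm 4 F) v (X v) = 0 := by
    intro v
    have e := hsk v v
    rw [polar_comm] at e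
    have : (2 : F) * polar (plusForm 4 F) v (X v) = 0 := by linear_combination e
    exact (mul_eq_zero.1 this).resolve_left h2
  have hX : ∀ v, plusForm 4 F (X v) = -((2 : F)⁻¹ * polar (plusForm 4 F) v (X (X v))) := by
    intro v
    have e := hsk v (X v)
    rw [hself] at e
    have h4 : (2 : F)⁻¹ * 2 = 1 := inv_mul_cancel₀ h2
    linear_combination (2 : F)⁻¹ * e - plusForm 4 F (X v) * h4
  have hXX : ∀ v, plusForm 4 F (X (X v)) = 0 := by
    intro v
    rw [hX, hX3, polar_zero_right, mul_zero, neg_zero]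
  intro v
  change plusForm 4 F (v + t • X v + ((2 : F)⁻¹ * t ^ 2) • X (X v)) = _
  have e1 : polar (plusForm 4 F) (X v) (X (X v)) = 0 := h0 _
  rw [norm_add, norm_add, QuadraticMap.map_smul, QuadraticMap.map_smul, hXX, hX, polar_add_left, polar_smul_right,
    polar_smul_right, polar_smul_right, polar_smul_left, e1, h0]
  simp only [smul_eq_mul]
  ring

end grp

/-! ### `u` -/

section uu

variable {F : Type} [Field F] (h2 : (2 : F) ≠ 0) {u : V8 F ≃ₗ[F] V8 F} {N : V8 F →ₗ[F] V8 F}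
  (hN : ∀ v, N v = u v - v) (hN3 : ∀ v, N (N (N v)) = 0)

include h2 hN hN3 in
theorem lg_skew (hu : ∀ v, plusForm 4 F (u v) = plusForm 4 F v) (v w : V8 F) :
    polar (plusForm 4 F) (lg N v) w = - polar (plusForm 4 F) v (lg N w) := by
  have hp : ∀ v w, polar (plusForm 4 F) (u v) (u w) = polar (plusForm 4 F) v w := by
    intro v w
    rw [polar, polar, ← map_add, hu, hu, hu]
  have I1 : ∀ v w, polar (plusForm 4 F) (N v) w + polar (plusForm 4 F) v (N w) +
      polar (plusForm 4 F) (N v) (N w) = 0 := by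
    intro v w
    have e := hp v w
    have e1 : ∀ v, u v = N v + v := fun v => by rw [hN]; abel
    rw [e1, e1, polar_add_left, polar_add_right, polar_add_right] at e
    linear_combination e
  have e1 := I1 v w
  have e2 := I1 (N v) w
  have e3 := I1 v (N w)
  have e4 := I1 (N v) (N w)
  have e5 := I1 (N (N v)) w
  have e6 := I1 v (N (N w))
  rw [hN3, polar_zero_left, polar_zero_left, zero_add, add_zero] at e5
  rw [hN3, polar_zero_right, polar_zero_right, add_zero, add_zero] at e6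
  have h4 : (2 : F)⁻¹ * 2 = 1 := inv_mul_cancel₀ h2
  rw [lg_apply, lg_apply, polar_sub_left, polar_sub_right, polar_smul_left, polar_smul_right]
  simp only [smul_eq_mul]
  linear_combination e1 - (2 : F)⁻¹ * e2 - (2 : F)⁻¹ * e3 + (2 : F)⁻¹ * e5 + (2 : F)⁻¹ * e6 +
    polar (plusForm 4 F) (N v) (N w) * h4

end uu

section env

variable {F : Type} [Field F] {G Ω ι : Type} [Group G] [MulAction G Ω] {N : Subgroup G}
  {hG : Good (plusForm 4 F)} {κ : P8 F →* G} {s : F ≃+* F} {x₁ : G} {x : ι → G} {r : ι → ℕ}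
  {g : ι → (V8 F ≃ₗ[F] V8 F)}

/-- **mixed case, `p ≥ 5`**, from `(u - 1)³ = 0` and the torus -/
theorem mixed_odd [Finite F] [Finite ι] (h : T3 hG N κ s Ω x₁ x r g) (hN : NoN Ω N) {p : ℕ} [CharP F p]
    (hp5 : 5 ≤ p) (i₀ : ι) {D : V8 F →ₗ[F] V8 F} (hD : ∀ v, D v = g i₀ v - v)
    (hD3 : ∀ v, D (D (D v)) = 0) (hT : ∃ T : F → (V8 F ≃ₗ[F] V8 F), ∀ a, a ≠ 0 →
      (∀ v, plusForm 4 F (T a v) = plusForm 4 F v) ∧ (∀ v, T a (lg D v) = a ^ 2 • lg D (T a v)) ∧
      ∀ i, i ≠ i₀ → T a * g i = g i * T a) : False := by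
  classical
  obtain ⟨T, hT⟩ := hT
  have hpp : p.Prime := (CharP.char_is_prime_or_zero F p).resolve_right (by omega)
  have h2 : (2 : F) ≠ 0 := by
    intro h0
    have := (CharP.cast_eq_zero_iff F p 2).1 (by exact_mod_cast h0)
    have := Nat.le_of_dvd (by norm_num) this
    omega
  have h3 : (3 : F) ≠ 0 := by
    intro h0
    have := (CharP.cast_eq_zero_iff F p 3).1 (by exact_mod_cast h0)
    have := Nat.le_of_dvd (by norm_num) this
    omega
  have huE := (h.mem i₀).1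
  have hum : ∀ v w, g i₀ (tw s v w) = tw s (g i₀ v) (g i₀ w) := (h.mem i₀).2
  have hNm : ∀ v w, D (tw s v w) = tw s (D v) w + tw s v (D w) + tw s (D v) (D w) := by
    intro v w
    rw [hD, hD, hD, hum, tw_sub_left h.cube, tw_sub_right h.cube, tw_sub_right h.cube]
    simp only [tw_sub_left h.cube]
    abel
  have hX3 := lg3 hD3
  have hder := lg_der h.cube h2 h3 hNm hD3
  have hids := lg_ids h.cube h3 hNm hD3
  have hsk := lg_skew h2 hD hD3 (fun v => E_le_O huE v)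
  set X := lg D with hX
  have hO : ∀ t, exq h2 hX3 t ∈ O (plusForm 4 F) := exq_mem_O h2 hX3 hsk
  have hpow : ∀ t, exq h2 hX3 t ^ p = 1 := by
    intro t
    rw [← exq_nsmul, nsmul_eq_mul, CharP.cast_eq_zero, zero_mul, exq_zero]
  have hE : ∀ t, exq h2 hX3 t ∈ E (plusForm 4 F) := fun t =>
    Cfsg.Agent.H16.Og.mem_E_of_odd hG (hO t) (hpp.odd_of_ne_two (by omega)) (hpow t)
  have hTE : ∀ a, a ≠ 0 → T a * T a ∈ E (plusForm 4 F) := fun a ha =>
    Cfsg.Agent.H16.Og.sq_mem_E hG (fun v => (hT a ha).1 v)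
  -- commutation with the `g j`
  have hgX : ∀ j v, g j (X v) = X (g j v) := by
    intro j v
    have e1 : ∀ v, g j (D v) = D (g j v) := by
      intro v
      rw [hD, hD, map_sub]
      have := congrArg (fun z : V8 F ≃ₗ[F] V8 F => z v) (h.comm j i₀)
      exact congrArg (· - g j v) this
    rw [hX, lg_apply, lg_apply, map_sub, map_smul, e1, e1, e1]
  let A : F → ↥(E (plusForm 4 F)) := fun t => ⟨exq h2 hX3 t, hE t⟩
  let S : F → ↥(E (plusForm 4 F)) := fun a => if ha : a ≠ 0 then ⟨T a * T a, hTE a ha⟩ else 1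
  refine dead_of_grading h hN hp5 i₀ A (fun t t' => Subtype.ext (exq_add h2 hX3 t t')) ?_ ?_ ?_ S ?_ ?_
  · apply LinearEquiv.ext
    intro v
    change exq h2 hX3 1 v = g i₀ v
    rw [exq_apply, hX, lg_lg hD3, lg_apply, one_smul, one_pow, mul_one, hD v]
    abel
  · intro t
    have hk : ∀ v w, (tg _ (A t)).1 (dia (fG s) v w) =
        dia (fG s) ((tg _ (A (s t))).1 v) ((tg _ (A (s (s t)))).1 w) := by
      intro v w
      change exq h2 hX3 t (tw s v w) = tw s (exq h2 hX3 (s t) v) (exq h2 hX3 (s (s t)) w)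
      obtain ⟨k1, k2⟩ := hids v w
      simp only [exq_apply, hder, map_add, tw_add_left h.cube, tw_add_right h.cube, tw_smul_left h.cube,
        tw_smul_right h.cube, map_mul, map_pow, inv_two_fix, h.cube, k2]
      have k3 : tw s (X (X v)) (X w) = - tw s (X v) (X (X w)) := eq_neg_of_add_eq_zero_left k1
      rw [k3]
      have h4 : (2 : F)⁻¹ * 2 = 1 := inv_mul_cancel₀ h2
      have e5 : (t ^ 2) • tw s (X v) (X w) = ((2 : F)⁻¹ * 2 * t ^ 2) • tw s (X v) (X w) := by rw [h4, one_mul]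
      rw [← sub_eq_zero]
      have e6 := sub_eq_zero.2 e5.symm
      refine Eq.trans ?_ e6
      module
    have hl := La.conj_lf h.tri (Lf.tg (ρ := up κ) (A t)) (xt_conj_tri hG (tri_fG s) hk)
    exact eq_of_lf hG h.env h.rp.rep hl (Lf.tg (ρ := up κ) (A (s t))) (fun v => rfl)
  · intro t j
    apply LinearEquiv.ext
    intro v
    change exq h2 hX3 t (g j v) = g j (exq h2 hX3 t v)
    rw [exq_apply, exq_apply, map_add, map_add, map_smul, map_smul, hgX, hgX, hgX]
  · intro a ha t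
    have hS : (S a : V8 F ≃ₗ[F] V8 F) = T a * T a := by
      change ((if ha : a ≠ 0 then (⟨T a * T a, hTE a ha⟩ : ↥(E (plusForm 4 F))) else 1 : ↥(E (plusForm 4 F))) :
        V8 F ≃ₗ[F] V8 F) = _
      rw [dif_pos ha]
    rw [mul_inv_eq_iff_eq_mul]
    apply Subtype.ext
    apply LinearEquiv.ext
    intro v
    change (S a : V8 F ≃ₗ[F] V8 F) (exq h2 hX3 t v) = exq h2 hX3 (a ^ 4 * t) ((S a : V8 F ≃ₗ[F] V8 F) v)
    rw [hS]
    change T a (T a (exq h2 hX3 t v)) = exq h2 hX3 (a ^ 4 * t) (T a (T a v))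
    have e1 := (hT a ha).2.1
    simp only [exq_apply, map_add, map_smul, e1, smul_smul]
    ring_nf
  · intro a ha j hj
    have hS : (S a : V8 F ≃ₗ[F] V8 F) = T a * T a := by
      change ((if ha : a ≠ 0 then (⟨T a * T a, hTE a ha⟩ : ↥(E (plusForm 4 F))) else 1 : ↥(E (plusForm 4 F))) :
        V8 F ≃ₗ[F] V8 F) = _
      rw [dif_pos ha]
    rw [hS, mul_assoc, (hT a ha).2.2 j hj, ← mul_assoc, (hT a ha).2.2 j hj, mul_assoc]

end env

end Cfsg.Agent.H93.RC.Mix
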