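import Cfsg.Agent.H93.RC.MixExp
import Cfsg.Agent.H256.RC.Cube
import Cfsg.Agent.H385.RC.Torus

/-!
# S3510, triality type iii, mixed case, `p` odd: assembly (helper93)
-/

set_option autoImplicit false
open Cfsg

namespace Cfsg.Agent.H93.RC.Mix

open Module QuadraticMap MulAction
open Cfsg.Agent.LieClassical.OrthCore Cfsg.Agent.LieClassical.OrthTrans
open Cfsg.Agent.LieClassical.OrthSimple Cfsg.Agent.ClassicalGeometry.OrthSemi
open Cfsg.Agent.ClassicalGeometry.OrthAut1 Cfsg.Agent.H106.RC Cfsg.Agent.H93.RC Cfsg.Agent.H566.RC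
open Cfsg.Agent.LieClassical.QuadForms Cfsg.Agent.ClassicalGeometry.TrialityOct
open Cfsg.Agent.ClassicalGeometry.Triality Cfsg.Agent.ClassicalGeometry.TrialitySpaces
open Cfsg.Agent.H198.TriBase Cfsg.Agent.H198.TriAut Cfsg.Agent.H206.Balance Cfsg.Agent.H198.TriDia
open Cfsg.Agent.H864.RC Cfsg.Agent.H195.RC

variable {F : Type} [Field F] {G Ω ι : Type} [Group G] [MulAction G Ω] {N : Subgroup G}
  {hG : Good (plusForm 4 F)} {κ : P8 F →* G} {s : F ≃+* F} {x₁ : G} {x : ι → G} {r : ι → ℕ}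
  {g : ι → (V8 F ≃ₗ[F] V8 F)}

/-- **mixed case, `p` odd** -/
theorem dead_mixed_odd [Finite F] [Finite ι] (h : T3 hG N κ s Ω x₁ x r g) (hN : NoN Ω N) {p : ℕ} [CharP F p]
    (hp2 : p ≠ 2) (i₀ j₀ : ι) (hi : r i₀ = p) (hj : r j₀ ≠ p) : False := by
  have hpp : p.Prime := by rw [← hi]; exact h.prime i₀
  have hp3 : p ≠ 3 := by rw [← hi]; exact h.three i₀
  have hp5 : 5 ≤ p := by
    have h2 := hpp.two_le
    have h4 : p ≠ 4 := by rintro rfl; norm_num at hpp
    omega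
  have h2 : (2 : F) ≠ 0 := by
    intro h0
    have := (CharP.cast_eq_zero_iff F p 2).1 (by exact_mod_cast h0)
    have := Nat.le_of_dvd (by norm_num) this
    omega
  have hgE : ∀ i, g i ∈ E (plusForm 4 F) := fun i => (h.mem i).1
  set D : V8 F →ₗ[F] V8 F := (g i₀ : V8 F →ₗ[F] V8 F) - 1 with hDdef
  have hD : ∀ v, D v = g i₀ v - v := fun v => rfl
  have hD3 : ∀ v, D (D (D v)) = 0 := Cfsg.Agent.H256.RC.cube_zero' hp2 h.cube h.ne (h.mem i₀) (by rw [← hi]; exact h.pow i₀) (h.mem j₀)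
    (h.prime j₀) hj (h.three j₀) (h.pow j₀) (h.ne1 j₀) (h.comm i₀ j₀) hD
  refine mixed_odd h hN hp5 i₀ hD hD3 ?_
  have hj0 : j₀ ≠ i₀ := by
    rintro rfl
    exact hj hi
  have hgX : ∀ j v, g j (lg D v) = lg D (g j v) := by
    intro j v
    have e1 : ∀ v, g j (D v) = D (g j v) := by
      intro v
      rw [hD, hD, map_sub]
      have := congrArg (fun z : V8 F ≃ₗ[F] V8 F => z v) (h.comm j i₀)
      exact congrArg (· - g j v) this
    rw [lg_apply, lg_apply, map_sub, map_smul, e1, e1, e1]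
  obtain ⟨T, hT⟩ := Cfsg.Agent.H385.RC.Torus.exists_torus (Q := plusForm 4 F) (X := lg D) (ι := {i : ι // i ≠ i₀}) (g := fun i => g i.1)
    (r := fun i => r i.1) (fun v hv => by
      by_contra hv0
      obtain ⟨w, hw⟩ := hG.nondeg.exists_polar_ne hv0
      exact hw (hv w)) h2 (lg_skew h2 hD hD3 (fun v => E_le_O (hgE i₀) v)) (lg3 hD3)
    (fun i v => E_le_O (hgE i.1) v) (fun i => by
      intro h0
      have h4 := (CharP.cast_eq_zero_iff F p _).1 h0
      have h5 : r i.1 = p := ((Nat.prime_dvd_prime_iff_eq hpp (h.prime i.1)).1 h4).symm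
      exact i.2 (h.inj (h5.trans hi.symm)))
    (fun i => h.pow i.1) (fun i j => h.comm i.1 j.1) (fun i v => hgX i.1 v)
  exact ⟨T, fun a ha => ⟨(hT a ha).1, (hT a ha).2.1, fun i hi => (hT a ha).2.2 ⟨i, hi⟩⟩⟩

end Cfsg.Agent.H93.RC.Mix
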